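import Cfsg.Agent.PGroup.ExtraspecialIso

/-!
The number of elements squaring to the identity in an extraspecial 2-group.
-/

set_option autoImplicit false

open scoped commutatorElement

universe u

namespace CfsgLib.Extraspecial

open CfsgLib.PGroup

variable {E : Type u} [Group E] [Finite E]

/-- Splitting off a pair of involutions: the number of solutions of `w² = 1` is `|C| + 2 I(C)`. -/
theorem card_sq_eq_one_of_pair (h : XS 2 E) {x y z : E} (hz : z ∈ Subgroup.center E) (hz1 : z ≠ 1)
    (hxy : ⁅x, y⁆ = z) (hx2 : x ^ 2 = 1) (hy2 : y ^ 2 = 1) :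
    Nat.card {w : E // w ^ 2 = 1} = Nat.card (Subgroup.centralizer ({x, y} : Set E)) +
      2 * Nat.card {c : Subgroup.centralizer ({x, y} : Set E) // c ^ 2 = 1} := by
  classical
  set C := Subgroup.centralizer ({x, y} : Set E) with hC
  have : Fintype C := Fintype.ofFinite _
  have hcx : ∀ c : C, Commute x (c : E) := fun c => Subgroup.mem_centralizer_iff.mp c.2 x (by simp)
  have hcy : ∀ c : C, Commute y (c : E) := fun c => Subgroup.mem_centralizer_iff.mp c.2 y (by simp)
  have hxy2 : (x * y) ^ 2 = z := by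
    have := h.pow_center hz
    rw [pow_two] at hx2 hy2 ⊢
    calc x * y * (x * y) = ⁅x, y⁆ * (y * x) * (x * y) := by rw [← mul_eq_commutator_mul]
      _ = z * (y * (x * x) * y) := by rw [hxy]; simp [mul_assoc]
      _ = z := by rw [hx2, mul_one, hy2, mul_one]
  let f : (Bool × Bool) × C → E := fun t => (if t.1.1 then x else 1) * (if t.1.2 then y else 1) * (t.2 : E)
  have hbool : ∀ a b : Bool, (if a then z else 1) = (if b then z else (1 : E)) → a = b := by
    intro a b; cases a <;> cases b <;> simp [hz1, Ne.symm hz1]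
  have hfy : ∀ t, h.commHom y (f t) = (if t.1.1 then z else 1) := by
    rintro ⟨⟨a, b⟩, c⟩
    have e1 : h.commHom y (c : E) = 1 := commutatorElement_eq_one_iff_mul_comm.mpr (hcy c).symm
    have e2 : h.commHom y y = 1 := commutatorElement_self y
    have e3 : h.commHom y x = z := hxy
    cases a <;> cases b <;> simp [f, e1, e2, e3]
  have hfx : ∀ t, h.commHom x (f t) = (if t.1.2 then z else 1) := by
    rintro ⟨⟨a, b⟩, c⟩
    have e1 : h.commHom x (c : E) = 1 := commutatorElement_eq_one_iff_mul_comm.mpr (hcx c).symm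
    have e2 : h.commHom x x = 1 := commutatorElement_self x
    have e3 : h.commHom x y = z := by
      show ⁅y, x⁆ = z
      rw [← commutatorElement_inv, hxy, inv_eq_iff_mul_eq_one, ← pow_two, h.pow_center hz]
    cases a <;> cases b <;> simp [f, e1, e2, e3]
  have hinj : Function.Injective f := by
    rintro ⟨⟨a, b⟩, c⟩ ⟨⟨a', b'⟩, c'⟩ e
    have ha : a = a' := hbool _ _ (by have := congrArg (h.commHom y) e; rwa [hfy, hfy] at this)
    have hb : b = b' := hbool _ _ (by have := congrArg (h.commHom x) e; rwa [hfx, hfx] at this)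
    subst ha hb
    have : (c : E) = (c' : E) := mul_left_cancel e
    rw [Subtype.ext this]
  have hbij : Function.Bijective f := by
    refine (Nat.bijective_iff_injective_and_card _).mpr ⟨hinj, ?_⟩
    rw [Nat.card_prod, Nat.card_prod, ← h.card_centralizer_pair (x := x) (y := y) (hxy.symm ▸ hz1), ← hC]
    simp [mul_comm]
  have hfsq : ∀ t : (Bool × Bool) × C, (f t) ^ 2 = (if t.1.1 && t.1.2 then z else 1) * (t.2 : E) ^ 2 := by
    rintro ⟨⟨a, b⟩, c⟩
    cases a <;> cases b
    · simp [f]
    · simp [f, (hcy c).mul_pow, hy2]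
    · simp [f, (hcx c).mul_pow, hx2]
    · simp [f, ((hcx c).mul_left (hcy c)).mul_pow, hxy2]
  have hcount : Nat.card {w : E // w ^ 2 = 1} =
      ∑ ab : Bool × Bool, Nat.card {c : C // (if ab.1 && ab.2 then z else 1) * (c : E) ^ 2 = 1} := by
    rw [← Nat.card_congr ((Equiv.ofBijective f hbij).subtypeEquiv
      (p := fun t => (if t.1.1 && t.1.2 then z else 1) * (t.2 : E) ^ 2 = 1) (q := fun w => w ^ 2 = 1)
      (fun t => by rw [Equiv.ofBijective_apply, hfsq]))]
    exact (Nat.card_congr (Equiv.subtypeProdEquivSigmaSubtype fun (ab : Bool × Bool) (c : C) =>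
      (if ab.1 && ab.2 then z else 1) * (c : E) ^ 2 = 1)).trans Nat.card_sigma
  have hplain : Nat.card {c : C // (c : E) ^ 2 = 1} = Nat.card {c : C // c ^ 2 = 1} :=
    Nat.card_congr (Equiv.subtypeEquivRight fun c => by rw [Subtype.ext_iff, SubgroupClass.coe_pow, OneMemClass.coe_one])
  have hcompl : Nat.card {c : C // z * (c : E) ^ 2 = 1} = Nat.card C - Nat.card {c : C // c ^ 2 = 1} := by
    rw [← hplain, Nat.card_congr (Equiv.subtypeEquivRight (p := fun c : C => z * (c : E) ^ 2 = 1)
      (q := fun c : C => ¬ (c : E) ^ 2 = 1) fun c => ?_)]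
    · simp only [Nat.card_eq_fintype_card, Fintype.card_subtype_compl]
    · constructor
      · intro e e2; rw [e2, mul_one] at e; exact hz1 e
      · intro e
        rw [(center_eq_or h (h.pow_mem (c : E)) hz hz1).resolve_left e, ← pow_two, h.pow_center hz]
  have hle : Nat.card {c : C // c ^ 2 = 1} ≤ Nat.card C := Finite.card_subtype_le _
  rw [hcount, Fintype.sum_prod_type, Fintype.sum_bool, Fintype.sum_bool, Fintype.sum_bool]
  simp only [Bool.and_self, Bool.and_false, Bool.false_and, if_true, one_mul, hplain, hcompl,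
    Bool.false_eq_true, if_false]
  omega

/-- The count of solutions of `w² = 1` determines and is determined by the type. -/
theorem card_sq_eq_one : ∀ (n : ℕ) (E : Type u) [Group E] [Finite E], XS 2 E → Nat.card E = 2 ^ (2 * n + 1) →
    (IsPlus n E → Nat.card {w : E // w ^ 2 = 1} = 2 ^ (2 * n) + 2 ^ n) ∧
    (¬ IsPlus n E → Nat.card {w : E // w ^ 2 = 1} = 2 ^ (2 * n) - 2 ^ n) := by
  intro n
  induction n with
  | zero =>
    intro E _ _ h hc
    refine ⟨fun _ => ?_, fun hn => absurd (plus_zero h (by simpa using hc)) hn⟩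
    rw [Nat.card_congr (Equiv.subtypeUnivEquiv fun w => ?_), hc]
    · norm_num
    · have := pow_card_eq_one' (G := E) (x := w)
      rwa [hc, mul_zero, zero_add, pow_one] at this
  | succ n ih =>
    intro E _ _ h hc
    have step : ∀ x y z : E, z ∈ Subgroup.center E → z ≠ 1 → ⁅x, y⁆ = z → x ^ 2 = 1 → y ^ 2 = 1 →
        (IsPlus n (Subgroup.centralizer ({x, y} : Set E)) → Nat.card {w : E // w ^ 2 = 1} = 2 ^ (2 * (n + 1)) + 2 ^ (n + 1)) ∧
        (¬ IsPlus n (Subgroup.centralizer ({x, y} : Set E)) → Nat.card {w : E // w ^ 2 = 1} = 2 ^ (2 * (n + 1)) - 2 ^ (n + 1)) := by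
      intro x y z hz hz1 hxy hx hy
      have hne : ⁅x, y⁆ ≠ 1 := by rw [hxy]; exact hz1
      have c1 := h.card_centralizer_pair hne
      have hpow : 2 ^ (2 * (n + 1) + 1) = 2 ^ (2 * n + 1) * 2 ^ 2 := by rw [← pow_add]; congr 1
      rw [hc, hpow] at c1
      have hcC : Nat.card (Subgroup.centralizer ({x, y} : Set E)) = 2 ^ (2 * n + 1) :=
        Nat.eq_of_mul_eq_mul_right (by norm_num) c1
      obtain ⟨i1, i2⟩ := ih _ (h.xs_centralizer_pair hne).1 hcC
      have hcount := card_sq_eq_one_of_pair h hz hz1 hxy hx hy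
      have hle : 2 ^ n ≤ 2 ^ (2 * n) := Nat.pow_le_pow_right (by norm_num) (by omega)
      rw [hcC] at hcount
      have h4 : 2 ^ (2 * (n + 1)) = 4 * 2 ^ (2 * n) := by ring
      constructor
      · intro hp; rw [hcount, i1 hp, h4, pow_succ 2 (2 * n), pow_succ 2 n]; omega
      · intro hp; rw [hcount, i2 hp, h4, pow_succ 2 (2 * n), pow_succ 2 n]; omega
    constructor
    · intro hP
      obtain ⟨x, y, z, hx, hy, hz, hz1, hxy, hC⟩ := exists_pair_of_plus h hP
      exact (step x y z hz hz1 hxy hx hy).1 hC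
    · intro hP
      cases n with
      | zero =>
        obtain ⟨z, hz, hz1⟩ := h.exists_ne_one
        have key : ∀ w : E, w ^ 2 = 1 ↔ w ∈ Subgroup.center E := by
          intro w
          refine ⟨fun hw2 => ?_, fun hw => h.pow_center hw⟩
          by_contra hw
          obtain ⟨v, z₁, hz₁, hz₁1, hwv, _⟩ := exists_involution_pair h hw hw2
          have hne : ⁅w, v⁆ ≠ 1 := by rw [hwv]; exact hz₁1
          have c1 := h.card_centralizer_pair hne
          rw [hc] at c1
          refine hP (plus_of_pair h hne hw2 (plus_zero (h.xs_centralizer_pair hne).1 ?_))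
          norm_num at c1 ⊢; omega
        rw [Nat.card_congr (Equiv.subtypeEquivRight key)]
        rw [h.card_center]; norm_num
      | succ m =>
        obtain ⟨x, hx, hx2⟩ := exists_noncentral_involution h hc
        obtain ⟨y, z, hz, hz1, hxy, hy2⟩ := exists_involution_pair h hx hx2
        exact (step x y z hz hz1 hxy hx2 hy2).2 fun e => hP (plus_of_pair h (hxy.symm ▸ hz1) hx2 e)

end CfsgLib.Extraspecial
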